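import Mathlib
import Cfsg.Agent.Lib.MonRep.UB
import Cfsg.Agent.Lib.Mon.Struct4

/-!
The representation of degree 4371 and matrix realizations.
-/

set_option autoImplicit false

namespace CfsgLib.MonRep

open Cfsg CfsgLib.Leech CfsgLib.Mon Matrix Finset Module

/-- the subspace of dimension 4371 inside `UU` -/
noncomputable def UK : Submodule ℚ (UU k0) := (UB k0 none (some 0)).comap (UU k0).subtype

theorem finrank_UK : finrank ℚ UK ≤ 4371 :=
  (Submodule.comapSubtypeEquivOfLe UB_le_UU).finrank_eq.le.trans (finrank_UB std_k0 (by decide))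

theorem tK_eq' : tK = q k0 0 (ub k0 none (some 0)) := by rw [tK_eq, φ_ub]

theorem exists_repU (hV : MAm (piV k0) std_k0.tauV) : ∃ σ : Representation ℚ KU UK,
    (∀ c u, (σ (πK c) u).1.1 = rho k0 c u.1.1) ∧ ∀ u, (σ τK u).1.1 = tau k0 u.1.1 := by
  obtain ⟨f, h1, h2⟩ := hV.res.exists_lift
  have h3 : ∀ c u, (repOf f (πK c) u).1 = rho k0 c u.1 := fun c u => by
    rw [repOf_apply, show f (πK c) = piV k0 c from DFunLike.congr_fun h1 c]; rfl
  have h4 : ∀ u, (repOf f τK u).1 = tau k0 u.1 := fun u => by rw [repOf_apply, h2]; rfl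
  refine ⟨(repOf f).subrepresentation UK (gen_ind gen_KU kam_KU.cube
    (p := fun g => UK ≤ UK.comap (repOf f g)) (fun c u hu => ?_) (fun u hu => ?_)
    fun a b ha hb x hx => by rw [map_mul]; exact ha (hb hx)), fun c u => h3 c u.1, fun u => h4 u.1⟩
  · exact (h3 c u ▸ rho_mem_UB std_k0 (by decide) c.2 hu : (repOf f (πK c) u).1 ∈ UB _ _ _)
  · exact (h4 u ▸ tau_mem_UB std_k0 (by decide) hu : (repOf f τK u).1 ∈ UB _ _ _)

variable {G : Type*} [Group G]

theorem range_simple {H : Type*} [Group H] [IsSimpleGroup G] {f : G →* H} (h : Function.Injective f) :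
    IsSimpleGroup f.range ∧ Nat.card f.range = Nat.card G :=
  ⟨(MonoidHom.ofInjective h).symm.isSimpleGroup, (Nat.card_congr (MonoidHom.ofInjective h).toEquiv).symm⟩

theorem exists_repB (hV : MAm (piV k0) std_k0.tauV) {e : KU →* G} (hs : Function.Surjective e)
    (hk : e.ker = Subgroup.zpowers (πK tKK)) : ∃ σ : Representation ℚ G UK,
    (∀ c u, (σ (e (πK c)) u).1.1 = rho k0 c u.1.1) ∧ ∀ u, (σ (e τK) u).1.1 = tau k0 u.1.1 := by
  obtain ⟨σ, h1, h2⟩ := exists_repU hV
  have h3 : e.ker ≤ σ.ker := by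
    rw [hk, Subgroup.zpowers_le]
    exact LinearMap.ext fun u => Subtype.ext (Subtype.ext ((h1 tKK u).trans
      (by rw [show (tKK : C k0) = _ from tK_eq']; exact rho_t_UB (by decide) u.2)))
  refine ⟨(Units.coeHom _).comp (e.liftOfSurjective hs ⟨σ.asGroupHom, fun x hx =>
    Units.ext (h3 hx)⟩), fun c u => ?_, fun u => ?_⟩ <;>
    rw [MonoidHom.comp_apply, MonoidHom.liftOfRightInverse_comp_apply]
  exacts [h1 c u, h2 u]

theorem Tn_mem_UK : (⟨_, Tn_mem (uv none (some 0)) (eb 0)⟩ : UU k0) ∈ UK :=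
  Tn_eb_mem_UB std_k0 (dotProduct_zero _)

theorem exists_repB' (hV : MAm (piV k0) std_k0.tauV) {e : KU →* G} (hs : Function.Surjective e)
    (hk : e.ker = Subgroup.zpowers (πK tKK)) : ∃ σ : Representation ℚ G UK,
    σ (e (πK zK)) ≠ 1 ∧ σ (e τK) ≠ 1 := by
  obtain ⟨σ, h1, h2⟩ := exists_repB hV hs hk
  have h3 : σ (e (πK zK)) ≠ 1 := fun a => by
    have := congrArg (fun u : VV => u.2.2 none 0) (h1 zK ⟨_, Tn_mem_UK⟩)
    rw [a] at this
    simp [zK, rho_apply, repT_z, Tn, vecMulVec_apply, uv, ep, eb] at this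
    norm_num at this
  refine ⟨σ, h3, fun a => ?_⟩
  have := congrArg (fun u : VV => u.2.2 none 0) (h2 ⟨_, Tn_mem_UK⟩)
  obtain ⟨w, hw, b⟩ := std_k0.exists_OS none 0
  replace b : w.1 = a0 k0 := by
    rcases b with b | b
    · have := std_k0.OS_odd hw
      rw [b, dotProduct_zero] at this
      exact absurd this (by decide)
    · rw [b, zero_add]
  have c : om w (ub k0 none (some 0)) = 0 := by rw [om_ub std_k0, b, ub_dot_a0 std_k0]
  have d := congrArg (tau k0) (YY_sub std_k0 c)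
  rw [map_sub, std_k0.tau_YY hw, std_k0.tau_YY (OS_add hw c), ZZ_sub std_k0 c, map_smul, b,
    w_add_self] at d
  have d' := congrArg (fun u : VV => u.2.2 none 0) d
  simp only [Prod.smul_snd, Matrix.smul_apply, ← this, a, Module.End.one_apply] at d'
  simp [Tn, eb, uv, ep, vecMulVec_apply, (sg_ne_zero _).symm, a0_k0] at d'

variable [Finite G] [IsSimpleGroup G]

theorem exists_GL_B (hV : MAm (piV k0) std_k0.tauV) {e : KU →* G} (hs : Function.Surjective e)
    (hk : e.ker = Subgroup.zpowers (πK tKK)) (F : Type*) [Field F] (h2 : (2 : F) ≠ 0) :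
    ∃ ρ : G →* GL (Fin 4371) F, Function.Injective ρ :=
  let ⟨σ, h, _⟩ := exists_repB' hV hs hk
  exists_GL_of_rat (V := UK) σ (n := 4371) finrank_UK F (l := 2) (by exact_mod_cast h2)
    (by rw [← map_pow, ← map_pow, pow_two, zK_mul_self, map_one, map_one]) h

theorem exists_GL_B2 (hV : MAm (piV k0) std_k0.tauV) {e : KU →* G} (hs : Function.Surjective e)
    (hk : e.ker = Subgroup.zpowers (πK tKK)) :
    ∃ ρ : G →* GL (Fin 4370) (ZMod 2), Function.Injective ρ :=
  let ⟨σ, _, h⟩ := exists_repB' hV hs hk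
  exists_GL_two (V := UK) σ (n := 4370) (by decide) finrank_UK
    (by rw [← map_pow, kam_KU.cube, map_one]) h

theorem core0465 (hV : MAm (piV k0) std_k0.tauV) (hK : KS πK τK) :
    ∃ (F : Type) (_ : Field F) (_ : Fintype F), CharP F 2 ∧
      ∃ H : Subgroup (GL (Fin 4370) F), Cfsg.IsB H := by
  have hk : (QuotientGroup.mk' (Subgroup.center KU)).ker = Subgroup.zpowers (πK tKK) := by
    rw [QuotientGroup.ker_mk', hK.center_eq gen_KU]
  have h1 := hK.isB_center gen_KU
  have := h1.1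
  have := hK.finite_top gen_KU
  obtain ⟨ρ, hρ⟩ := exists_GL_B2 hV (QuotientGroup.mk'_surjective _) hk
  exact ⟨ZMod 2, inferInstance, inferInstance, inferInstance, ρ.range, (range_simple hρ).1,
    (range_simple hρ).2.trans h1.2⟩

theorem core0467 (hV : MAm (piV k0) std_k0.tauV) (hM : MS πM τM) :
    ∃ H : Subgroup (GL (Fin 196883) ℝ), Cfsg.IsM H := by
  obtain ⟨f, hf⟩ := exists_mrep hV
  have := hM.simple
  have := hM.finite
  obtain ⟨ρ, hρ⟩ := hf.exists_GL ℝ two_ne_zero
  exact ⟨ρ.range, (range_simple hρ).1, (range_simple hρ).2.trans hM.card_G⟩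

end CfsgLib.MonRep
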