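import Mathlib

/-!
Derivations on the preimages of subgroups: transfer, gluing, cyclic groups.
-/

set_option autoImplicit false

namespace CfsgLib.MonRep

open Subgroup Finset

variable {F Γ G M : Type*} [Field F] [Group Γ] [Group G] [AddCommGroup M] [Module F M]
  {f : Γ →* G} {a : Representation F Γ M} {S T : Subgroup G} {D D' δ : Γ → M}

/-- `D` is a derivation on the preimage of `S` -/
def Der (f : Γ →* G) (a : Representation F Γ M) (S : Subgroup G) (D : Γ → M) : Prop :=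
  ∀ x y, f x ∈ S → f y ∈ S → D (x * y) = D x + a x (D y)

/-- `D` is inner on the preimage of `S` -/
def Inn (f : Γ →* G) (a : Representation F Γ M) (S : Subgroup G) (D : Γ → M) : Prop :=
  ∃ m, ∀ x, f x ∈ S → D x = m - a x m

/-- the first cohomology of `S` vanishes -/
def H1 (f : Γ →* G) (a : Representation F Γ M) (S : Subgroup G) : Prop :=
  ∀ d, Der f a S d → (∀ x, f x = 1 → d x = 0) → Inn f a S d

/-- `δ` extends to a derivation on the preimage of `S` -/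
def Xt (f : Γ →* G) (a : Representation F Γ M) (δ : Γ → M) (S : Subgroup G) : Prop :=
  ∃ D, Der f a S D ∧ ∀ x, f x = 1 → D x = δ x

/-- `δ` is an invariant homomorphism on the kernel -/
structure Dl (f : Γ →* G) (a : Representation F Γ M) (δ : Γ → M) : Prop where
  triv : ∀ x, f x = 1 → ∀ m, a x m = m
  add : ∀ x y, f x = 1 → f y = 1 → δ (x * y) = δ x + δ y
  conj : ∀ g x, f x = 1 → δ (g * x * g⁻¹) = a g (δ x)

theorem rmul (a : Representation F Γ M) (x y : Γ) (m : M) : a (x * y) m = a x (a y m) := by rw [map_mul]; rfl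

namespace Der

theorem one (h : Der f a S D) : D 1 = 0 := by simpa [S.one_mem] using h 1 1

theorem mono (h : Der f a T D) (k : S ≤ T) : Der f a S D := fun x y hx hy => h x y (k hx) (k hy)

theorem sub (h : Der f a S D) (h' : Der f a S D') : Der f a S fun x => D x - D' x := fun x y hx hy => by
  simp only [h x y hx hy, h' x y hx hy, map_sub]; abel

theorem conj (h : Der f a S D) {x y : Γ} (hx : f x ∈ S) (hy : f y ∈ S) :
    a x (D (x⁻¹ * y * x)) = D y - (D x - a y (D x)) := by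
  have := h x (x⁻¹ * y * x) hx (by simp only [map_mul, map_inv]; exact S.mul_mem (S.mul_mem (S.inv_mem hx) hy) hx)
  rw [show x * (x⁻¹ * y * x) = y * x by group, h y x hy hx] at this
  rw [eq_sub_of_add_eq' this.symm]; abel

theorem tw (h : Der f a S D) (g : Γ) :
    Der f a (S.comap (MulAut.conj (f g)⁻¹).toMonoidHom) fun x => a g (D (g⁻¹ * x * g)) := fun x y hx hy => by
  have := h (g⁻¹ * x * g) (g⁻¹ * y * g) (by simpa using hx) (by simpa using hy)
  rw [show g⁻¹ * x * g * (g⁻¹ * y * g) = g⁻¹ * (x * y) * g by group] at this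
  beta_reduce
  rw [this, map_add, ← rmul, ← rmul, show g * (g⁻¹ * x * g) = x * g by group]

end Der

theorem der_inn (m : M) : Der f a S fun x => m - a x m := fun x y _ _ => by simp only [rmul, map_sub]; abel

theorem Dl.xt (h : Dl f a δ) : Xt f a δ ⊥ := ⟨δ, fun x y hx hy => by rw [h.add x y hx hy, h.triv x hx], fun _ _ => rfl⟩

theorem Dl.conj' (h : Dl f a δ) (g : Γ) {x : Γ} (hx : f x = 1) : a g (δ (g⁻¹ * x * g)) = δ x := by
  rw [← h.conj g _ (by simp [hx])]; congr 1; group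

theorem exists_tr (hs : ∀ g ∈ T, ∃ x, f x = g) (S : Subgroup G) : ∃ r : T ⧸ S.subgroupOf T → Γ, (∀ ω, f (r ω) ∈ T) ∧
    (∀ x (hx : f x ∈ T) ω, f ((r ((⟨f x, hx⟩ : T) • ω))⁻¹ * (x * r ω)) ∈ S) := by
  choose l hl using fun g : T => hs g g.2
  refine ⟨fun ω => l ω.out, fun ω => hl _ ▸ ω.out.2, fun x hx ω => ?_⟩
  have : ((⟨f x, hx⟩ : T) • ω).out⁻¹ * (⟨f x, hx⟩ * ω.out) ∈ S.subgroupOf T := by
    rw [← QuotientGroup.eq, QuotientGroup.out_eq', ← smul_eq_mul, ← MulAction.Quotient.smul_coe, QuotientGroup.out_eq']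
  simpa [hl, mem_subgroupOf] using this

theorem Xt.of_index (hδ : Dl f a δ) (hs : ∀ g ∈ T, ∃ x, f x = g) (hi : (S.relIndex T : F) ≠ 0) (h : Xt f a δ S) :
    Xt f a δ T := by
  classical
  obtain ⟨D, h1, h2⟩ := h
  obtain ⟨r, r1, r2⟩ := exists_tr hs S
  have : Finite (T ⧸ S.subgroupOf T) := Nat.finite_of_card_ne_zero fun e => hi (by rw [relIndex, index, e, Nat.cast_zero])
  have := Fintype.ofFinite (T ⧸ S.subgroupOf T)
  refine ⟨fun x => if hx : f x ∈ T then (S.relIndex T : F)⁻¹ • ∑ ω, a (r ((⟨f x, hx⟩ : T) • ω))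
    (D ((r ((⟨f x, hx⟩ : T) • ω))⁻¹ * (x * r ω))) else 0, fun x y hx hy => ?_, fun x hx => ?_⟩
  · have hxy : f (x * y) ∈ T := map_mul f x y ▸ T.mul_mem hx hy
    simp only [dif_pos hx, dif_pos hy, dif_pos hxy, map_smul, map_sum, ← smul_add]
    rw [← Equiv.sum_comp (MulAction.toPerm (⟨f y, hy⟩ : T)) fun ω => a (r ((⟨f x, hx⟩ : T) • ω))
      (D ((r ((⟨f x, hx⟩ : T) • ω))⁻¹ * (x * r ω))), ← sum_add_distrib]
    refine congrArg _ (sum_congr rfl fun ω _ => ?_)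
    rw [show (⟨f (x * y), hxy⟩ : T) = ⟨f x, hx⟩ * ⟨f y, hy⟩ from Subtype.ext (map_mul f x y), mul_smul,
      MulAction.toPerm_apply, ← rmul]
    have := congrArg (a (r ((⟨f x, hx⟩ : T) • (⟨f y, hy⟩ : T) • ω))) (h1 _ _ (r2 x hx ((⟨f y, hy⟩ : T) • ω)) (r2 y hy ω))
    rwa [map_add, ← rmul, mul_inv_cancel_left, mul_assoc, mul_assoc, mul_inv_cancel_left, ← mul_assoc x] at this
  · have hx' : f x ∈ T := hx ▸ T.one_mem
    have e : ∀ ω, a (r ((⟨f x, hx'⟩ : T) • ω)) (D ((r ((⟨f x, hx'⟩ : T) • ω))⁻¹ * (x * r ω))) = δ x := fun ω => by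
      rw [show (⟨f x, hx'⟩ : T) = 1 from Subtype.ext hx, one_smul, ← mul_assoc, h2 _ (by simp [hx]), hδ.conj' _ hx]
    simp only [dif_pos hx', e, sum_const, card_univ, ← Nat.card_eq_fintype_card]
    rw [← Nat.cast_smul_eq_nsmul F]
    exact inv_smul_smul₀ hi _

theorem Inn.of_index (hs : ∀ g ∈ T, ∃ x, f x = g) (hS : S ≤ T) (hi : (S.relIndex T : F) ≠ 0) (hD : Der f a T D)
    (h : Inn f a S D) : Inn f a T D := by
  obtain ⟨m, hm⟩ := h
  obtain ⟨r, r1, r2⟩ := exists_tr hs S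
  have : Finite (T ⧸ S.subgroupOf T) := Nat.finite_of_card_ne_zero fun e => hi (by rw [relIndex, index, e, Nat.cast_zero])
  have := Fintype.ofFinite (T ⧸ S.subgroupOf T)
  have h1 := hD.sub (der_inn m)
  generalize hd : (fun x => D x - (m - a x m)) = d at h1
  refine ⟨m + (S.relIndex T : F)⁻¹ • ∑ ω, d (r ω), fun x hx => ?_⟩
  have e : ∀ ω, d (r ((⟨f x, hx⟩ : T) • ω)) = d x + a x (d (r ω)) := fun ω => by
    have := h1 _ _ (r1 ((⟨f x, hx⟩ : T) • ω)) (hS (r2 x hx ω))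
    rw [mul_inv_cancel_left, h1 _ _ hx (r1 _), ← hd] at this
    simpa [hm _ (r2 x hx ω), ← hd] using this.symm
  have e2 := Equiv.sum_comp (MulAction.toPerm (⟨f x, hx⟩ : T)) fun ω => d (r ω)
  simp only [MulAction.toPerm_apply, e, sum_add_distrib, sum_const, card_univ, ← Nat.card_eq_fintype_card, ← map_sum] at e2
  rw [← Nat.cast_smul_eq_nsmul F] at e2
  rw [map_add, map_smul, add_sub_add_comm, ← smul_sub, ← eq_sub_of_add_eq e2]
  erw [inv_smul_smul₀ hi]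
  rw [← hd, add_sub_cancel]

/-- the intersection with a conjugate -/
def Jn (S : Subgroup G) (g : G) : Subgroup G := S ⊓ S.comap (MulAut.conj g⁻¹).toMonoidHom

theorem mem_Jn {g x : G} : x ∈ Jn S g ↔ x ∈ S ∧ g⁻¹ * x * g ∈ S := by simp [Jn]

theorem Xt.glue (hδ : Dl f a δ) (h1 : ∀ g ∈ T, H1 f a (Jn S g))
    (h2 : ∀ g ∈ T, ∀ g' ∈ T, ∀ m, (∀ x, f x ∈ Jn S g → f x ∈ Jn S g' → a x m = m) → m = 0) (h : Xt f a δ S) :
    Xt f a δ T := by
  obtain ⟨D, d1, d2⟩ := h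
  have k : ∀ g, ∃ m, f g ∈ T → ∀ x, f x ∈ Jn S (f g) → D x - a g (D (g⁻¹ * x * g)) = m - a x m := fun g => by
    by_cases hg : f g ∈ T
    · obtain ⟨m, hm⟩ := h1 _ hg _ ((d1.mono inf_le_left).sub ((d1.tw g).mono inf_le_right)) fun x hx => by
        rw [d2 _ hx, d2 _ (by simp [hx]), hδ.conj' _ hx, sub_self]
      exact ⟨m, fun _ => hm⟩
    · exact ⟨0, fun e => absurd e hg⟩
  choose D' hD using k
  refine ⟨D', fun x y hx hy => ?_, fun x hx => ?_⟩
  · have hxy : f (x * y) ∈ T := map_mul f x y ▸ T.mul_mem hx hy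
    refine sub_eq_zero.1 (h2 _ hx _ hxy _ fun z z1 z2 => ?_)
    have e1 := hD x hx z z1
    have e2 := congrArg (a x) (hD y hy (x⁻¹ * z * x) (mem_Jn.2 ⟨by simpa using (mem_Jn.1 z1).2,
      by simpa [mul_assoc] using (mem_Jn.1 z2).2⟩))
    have e3 := hD _ hxy z z2
    rw [map_sub, map_sub, ← rmul, ← rmul a x (x⁻¹ * z * x), show x * (x⁻¹ * z * x) = z * x by group, rmul a z,
      show y⁻¹ * (x⁻¹ * z * x) * y = (x * y)⁻¹ * z * (x * y) by group] at e2
    rw [map_sub, map_add]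
    linear_combination (norm := abel) e3 - e1 - e2
  · have hx' : f x ∈ T := hx ▸ T.one_mem
    refine sub_eq_zero.1 (h2 _ hx' _ hx' _ fun z z1 _ => ?_)
    have e1 := hD x hx' z z1
    rw [d1.conj (hx ▸ S.one_mem) (mem_Jn.1 z1).1, d2 x hx] at e1
    rw [map_sub]
    linear_combination (norm := abel) e1

theorem Xt.cyc [Finite G] (hδ : Dl f a δ) {x : Γ} {y : M}
    (h : δ (x ^ orderOf (f x)) = ∑ i ∈ range (orderOf (f x)), a (x ^ i) y) : Xt f a δ (zpowers (f x)) := by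
  classical
  obtain ⟨Sg, hS⟩ : ∃ Sg : ℕ → M, ∀ i, Sg i = ∑ j ∈ range i, a (x ^ j) y := ⟨_, fun _ => rfl⟩
  have s1 : ∀ i k, Sg (i + k) = Sg i + a (x ^ i) (Sg k) := fun i k => by simp only [hS, sum_range_add, map_sum, pow_add, rmul]
  have s0 : δ 1 = 0 := by simpa using hδ.add 1 1
  have s2 : ∀ l, f (x ^ l) = 1 → δ (x ^ l) = Sg l := fun l hl => by
    obtain ⟨t, rfl⟩ := orderOf_dvd_of_pow_eq_one (map_pow f x l ▸ hl)
    have o : ∀ t, f (x ^ (orderOf (f x) * t)) = 1 := fun t => by rw [map_pow, pow_mul, pow_orderOf_eq_one, one_pow]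
    induction t with
    | zero => simp [hS, s0]
    | succ t ih => rw [mul_add, mul_one, pow_add, hδ.add _ _ (o t) (by simp), s1, ih (o t), h, hδ.triv _ (o t), ← hS]
  let R : Γ → M → Prop := fun z m => ∃ i n, f n = 1 ∧ z = x ^ i * n ∧ m = Sg i + a (x ^ i) (δ n)
  have r0 : ∀ i k n n', f n = 1 → f n' = 1 → x ^ i * n = x ^ (i + k) * n' →
      Sg i + a (x ^ i) (δ n) = Sg (i + k) + a (x ^ (i + k)) (δ n') := fun i k n n' hn hn' e => by
    rw [pow_add, mul_assoc, mul_right_inj] at e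
    have o : f (x ^ k) = 1 := by simpa [hn, hn'] using (congrArg f e).symm
    rw [e, hδ.add _ _ o hn', s2 k o, s1, pow_add, rmul, hδ.triv _ o, map_add, add_assoc]
  have r1 : ∀ z m, R z m → (if h : ∃ m, R z m then h.choose else 0) = m := fun z m hm => by
    rw [dif_pos ⟨m, hm⟩]
    obtain ⟨i, n, hn, e, e'⟩ := (⟨m, hm⟩ : ∃ m, R z m).choose_spec
    obtain ⟨k, n', hn', rfl, rfl⟩ := hm
    rw [e']
    rcases le_total i k with l | l <;> obtain ⟨l, rfl⟩ := Nat.exists_eq_add_of_le l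
    exacts [r0 _ _ _ _ hn hn' e.symm, (r0 _ _ _ _ hn' hn e).symm]
  have r2 : ∀ z, f z ∈ zpowers (f x) → ∃ m, R z m := fun z hz => by
    obtain ⟨i, e⟩ := mem_powers_iff_mem_zpowers.2 hz
    exact ⟨_, i, (x ^ i)⁻¹ * z, by simp [← e], by group, rfl⟩
  refine ⟨fun z => if h : ∃ m, R z m then h.choose else 0, fun z z' hz hz' => ?_,
    fun z hz => r1 _ _ ⟨0, z, hz, by simp, by simp [hS]⟩⟩
  obtain ⟨m, hm⟩ := r2 z hz
  obtain ⟨m', hm'⟩ := r2 z' hz'
  simp only [r1 _ _ hm, r1 _ _ hm']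
  obtain ⟨i, n, hn, rfl, rfl⟩ := hm
  obtain ⟨k, n', hn', rfl, rfl⟩ := hm'
  refine r1 _ _ ⟨i + k, (x ^ k)⁻¹ * n * x ^ k * n', by simp [hn, hn'], by rw [pow_add]; group, ?_⟩
  rw [hδ.add _ _ (by simp [hn]) hn', s1, pow_add, rmul, rmul, hδ.triv n hn, map_add, map_add, map_add, hδ.conj' _ hn]
  abel

theorem Dl.norm (hδ : Dl f a δ) {x n : Γ} {p k : ℕ} (hp : (p : F) = 0) (hx : f x ^ p = 1)
    (hn : f n * f x * (f n)⁻¹ = f x ^ k) {φ : M →ₗ[F] F} (hφ : ∀ m, φ (a x m) = φ m) :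
    φ (a n (δ (x ^ p))) = k * φ (δ (x ^ p)) := by
  have s0 : δ 1 = 0 := by simpa using hδ.add 1 1
  have e0 : ∀ i m, φ (a (x ^ i) m) = φ m := fun i => by
    induction i with
    | zero => simp
    | succ i ih => intro m; rw [pow_succ, rmul, ih, hφ]
  obtain ⟨u, hu⟩ : ∃ u, u = n * x * n⁻¹ * (x ^ k)⁻¹ := ⟨_, rfl⟩
  have u1 : f u = 1 := by simp [hu, hn]
  have u2 : ∀ i, f ((u * x ^ k) ^ i * ((x ^ k) ^ i)⁻¹) = 1 := fun i => by simp [u1]
  have e1 : ∀ i : ℕ, φ (δ ((u * x ^ k) ^ i * ((x ^ k) ^ i)⁻¹)) = i * φ (δ u) := fun i => by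
    induction i with
    | zero => simp [s0]
    | succ i ih =>
      rw [show (u * x ^ k) ^ (i + 1) * ((x ^ k) ^ (i + 1))⁻¹ = (u * x ^ k) ^ i * ((x ^ k) ^ i)⁻¹ *
        ((x ^ k) ^ i * u * ((x ^ k) ^ i)⁻¹) by rw [pow_succ, pow_succ]; group, hδ.add _ _ (u2 i) (by simp [u1]), map_add, ih,
        hδ.conj _ _ u1, ← pow_mul, e0]
      push_cast; ring
  have e2 : ∀ i : ℕ, δ ((x ^ p) ^ i) = (i : F) • δ (x ^ p) := fun i => by
    induction i with
    | zero => simp [s0]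
    | succ i ih => rw [pow_succ, hδ.add _ _ (by simp [hx]) (by simp [hx]), ih, Nat.cast_succ, add_smul, one_smul]
  rw [← hδ.conj _ _ (by simp [hx]), ← conj_pow, show n * x * n⁻¹ = u * x ^ k by rw [hu]; group,
    ← inv_mul_cancel_right ((u * x ^ k) ^ p) ((x ^ k) ^ p), hδ.add _ _ (u2 p) (by rw [← pow_mul, mul_comm]; simp [pow_mul, hx]),
    map_add, e1, hp, zero_mul, zero_add, ← pow_mul, mul_comm k, pow_mul, e2, map_smul, smul_eq_mul]

section one
variable (ht : ∀ x, f x = 1 → ∀ m, a x m = m) (hD : Der f a S D) (h0 : ∀ x, f x = 1 → D x = 0)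
include ht hD h0

theorem Der.congr {x y : Γ} (hx : f x ∈ S) (e : f y = f x) : D y = D x ∧ ∀ m, a y m = a x m := by
  have o : f (x⁻¹ * y) = 1 := by simp [e]
  rw [← mul_inv_cancel_left x y, hD _ _ hx (o ▸ S.one_mem), h0 _ o]
  exact ⟨by simp, fun m => by rw [rmul, ht _ o]⟩

omit ht h0 in
theorem Der.pow {x : Γ} (hx : f x ∈ S) (i : ℕ) : D (x ^ i) = ∑ j ∈ range i, a (x ^ j) (D x) := by
  induction i with
  | zero => simpa using hD.one
  | succ i ih => rw [pow_succ, hD _ _ (map_pow f x i ▸ S.pow_mem hx i) hx, ih, sum_range_succ]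

theorem Der.cyc [Finite G] {x : Γ} (hx : f x ∈ S) {m : M} (h : D x = m - a x m) : Inn f a (zpowers (f x)) D :=
  ⟨m, fun z hz => by
    obtain ⟨i, e⟩ := mem_powers_iff_mem_zpowers.2 hz
    obtain ⟨e1, e2⟩ := hD.congr ht h0 (x := x ^ i) (map_pow f x i ▸ S.pow_mem hx i) (e.symm.trans (map_pow f x i).symm)
    rw [e1, e2, hD.pow hx, h]
    simp only [map_sub, ← rmul, ← pow_succ]
    simpa using sum_range_sub' (fun j => a (x ^ j) m) i⟩

theorem Der.norm {x n : Γ} (hx : f x ∈ S) (hn : f n ∈ S) {k : ℕ} (e : (f n)⁻¹ * f x * f n = f x ^ k) {φ : M →ₗ[F] F}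
    (hφ : ∀ m, φ (a x m) = φ m) (hφ' : ∀ m, φ (a n m) = φ m) : φ (D x) = k * φ (D x) := by
  have e0 : ∀ i m, φ (a (x ^ i) m) = φ m := fun i => by
    induction i with
    | zero => simp
    | succ i ih => intro m; rw [pow_succ, rmul, ih, hφ]
  have := congrArg φ (hD.conj hn hx)
  rw [hφ', (hD.congr ht h0 (x := x ^ k) (map_pow f x k ▸ S.pow_mem hx k) (by simp [e])).1, hD.pow hx] at this
  simpa [-map_pow, e0, hφ] using this.symm

end one

theorem cast_ne_of_coprime {p n : ℕ} (hp : (p : F) = 0) (h : n.Coprime p) : (n : F) ≠ 0 := fun e => by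
  have := (Nat.isCoprime_iff_coprime.2 h).map (Int.castRingHom F)
  simp [hp, e] at this

theorem relIndex_zpowers [Finite G] {g : G} (hg : g ∈ T) {p n : ℕ} (hp : (p : F) = 0) (ho : orderOf g = p)
    (h : Nat.card T ∣ n * p) (hn : n.Coprime p) : ((zpowers g).relIndex T : F) ≠ 0 := by
  refine cast_ne_of_coprime hp (hn.coprime_dvd_left (Nat.dvd_of_mul_dvd_mul_right (ho ▸ orderOf_pos g) ?_))
  rwa [← ho, ← Nat.card_zpowers, ← relIndex_bot_left, mul_comm, relIndex_mul_relIndex _ _ _ bot_le (zpowers_le.2 hg),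
    relIndex_bot_left, relIndex_bot_left, Nat.card_zpowers, ho]

end CfsgLib.MonRep
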